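import Cfsg.Agent.H0.MO73x.D
set_option maxRecDepth 100000
set_option Elab.async false
set_option linter.unusedSectionVars false
namespace H0.MO73x
open H0 BN 
theorem rels : ∀ r ∈ B, ev R.p r = 1 := all_take_done (all_take_step (all_take_zero _ B) (rels_of_relsW R c0)) (by decide +kernel)
theorem defs_ok : DefsOK R.p defs 16 := defsOK_of_chk c1
variable {G : Type} [Group G] (P : Pres G 16 B)
noncomputable def m : Model G := P.model defs R rels (by decide +kernel) defs_ok R_ge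
include P
theorem mR : (m P).R = R := rfl
theorem g_eq {x : ℕ} (h : x < 16) : (m P).g x = P.g x := extG_out defs P.g 16 (Or.inl h)
theorem top : gen (m P).g (lets 16) = ⊤ := (gen_extG defs P.g 16 (by decide)).trans P.top
theorem grel : ∀ r ∈ B, ev (m P).g r = 1 := rels_extG defs 16 (by decide +kernel) P.rel
theorem hi : ∀ x < 16, (m P).g x * (m P).g (inv x) = 1 := inv_of_invChk (grel P) (by decide +kernel)
theorem cnt : ∀ i : Fin 7, (m P).fs (Subgroup.zpowers (ev (m P).g (EO73C.W.getD i []))) = [293, 275, 428, 266, 302, 356, 338].getD i 0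
  | ⟨0, _⟩ => (m P).fs_zp (Model.via _ (mR P) (fun R => (eqW R 0 R.lg (EO73C.W.getD 0 []) [16] && Nat.beq (cntF R [16] R.N) 293)) c2)
  | ⟨1, _⟩ => (m P).fs_zp (Model.via _ (mR P) (fun R => (eqW R 0 R.lg (EO73C.W.getD 1 []) [17] && Nat.beq (cntF R [17] R.N) 275)) c3)
  | ⟨2, _⟩ => (m P).fs_zp (Model.via _ (mR P) (fun R => (eqW R 0 R.lg (EO73C.W.getD 2 []) [18] && Nat.beq (cntF R [18] R.N) 428)) c4)
  | ⟨3, _⟩ => (m P).fs_zp (Model.via _ (mR P) (fun R => (eqW R 0 R.lg (EO73C.W.getD 3 []) [19] && Nat.beq (cntF R [19] R.N) 266)) c5)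
  | ⟨4, _⟩ => (m P).fs_zp (Model.via _ (mR P) (fun R => (eqW R 0 R.lg (EO73C.W.getD 4 []) [20] && Nat.beq (cntF R [20] R.N) 302)) c6)
  | ⟨5, _⟩ => (m P).fs_zp (Model.via _ (mR P) (fun R => (eqW R 0 R.lg (EO73C.W.getD 5 []) [21] && Nat.beq (cntF R [21] R.N) 356)) c7)
  | ⟨6, _⟩ => (m P).fs_zp (Model.via _ (mR P) (fun R => (eqW R 0 R.lg (EO73C.W.getD 6 []) [22] && Nat.beq (cntF R [22] R.N) 338)) c8)
theorem ord : ∀ i : Fin 7, ev (m P).g (EO73C.W.getD i []) ≠ 1 := fun i e => by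
  have := cnt P i
  rw [e, ← ev_nil (m P).g, (m P).fs_zp (v := []) (c := 2048) (Model.via _ (mR P) (fun R => eqW R 0 R.lg [] [] && Nat.beq (cntF R [] R.N) 2048) (by decide +kernel))] at this
  clear e; revert i; decide
end H0.MO73x
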